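import Cfsg.Agent.H94.S460.Base
import Cfsg.Agent.H94.S460.M.Pres

/-!
# Words for generators of a subgroup M11 of the presented O'Nan group, and certificates (helper94; generated)

The five involutions `img x` satisfy the relations of the presentation `m3_rws`; the lists below
are Sylow subgroups (as words in the five involutions) together with products of conjugates
of each of their elements that give the involution `e1`.  The checks are split into parts to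
bound the memory used by the kernel.
-/

set_option autoImplicit false
set_option maxRecDepth 1000000
set_option Elab.async false

namespace Cfsg.Agent.H94.S460.M

open Cfsg.Agent.H35 Cfsg.Spor

/-- the generators, as words in the generators of the O'Nan group -/
def img : OnL → List OnL
  | .a => [.e, .c, .b, .c, .g, .b, .g, .e, .d, .b, .d, .a, .d, .e, .g, .e, .d, .a, .d, .b, .d, .e, .v, .b, .v, .c, .b, .c, .e, .f, .d, .e, .f, .v, .e, .d, .c, .d, .e, .c, .g, .b, .c, .a, .c, .b, .v, .c, .e, .d, .c, .d, .e, .g, .f, .e, .d, .f, .e, .c, .b, .c, .g, .b, .g, .e, .d, .b, .d, .a, .d, .e, .g, .g, .e, .d, .a, .d, .b, .d, .e, .v, .b, .v, .c, .b, .c, .e, .f, .d, .e, .f, .v, .e, .d, .c, .d, .e, .c, .g, .b, .c, .a, .c, .b, .v, .c, .e, .d, .c, .d, .e, .g, .f, .e, .d, .f, .e, .c, .b, .c, .g, .b, .g, .e, .d, .b, .d, .a, .d, .e, .g, .g, .e, .d, .a, .d, .b, .d, .e, .v, .b, .v, .c, .b, .c, .e, .f, .d, .e, .f, .v, .e, .d,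 .c, .d, .e, .c, .g, .b, .c, .a, .c, .b, .v, .c, .e, .d, .c, .d, .e, .g, .f, .e, .d, .f, .e, .c, .b, .c, .g, .b, .g, .e, .d, .b, .d, .a, .d, .e, .g, .e, .d, .a, .d, .b, .d, .e, .v, .b, .v, .c, .b, .c, .e]
  | .b => [.f, .d, .e, .f, .v, .e, .d, .c, .d, .e, .c, .g, .b, .c, .a, .c, .b, .v, .c, .e, .d, .c, .d, .e, .g, .f, .e, .d, .f, .e, .c, .b, .c, .g, .b, .g, .e, .d, .b, .d, .a, .d, .e, .v, .e, .d, .a, .d, .b, .d, .e, .v, .b, .v, .c, .b, .c, .e, .f, .d, .e, .f, .v, .e, .d, .c, .d, .e, .c, .g, .b, .c, .a, .c, .b, .v, .c, .e, .d, .c, .d, .e, .g, .f, .e, .d, .f, .e, .c, .b, .c, .g, .b, .g, .e, .d, .b, .d, .a, .d, .e, .g, .g, .e, .d, .a, .d, .b, .d, .e, .v, .b, .v, .c, .b, .c, .e, .f, .d, .e, .f, .v, .e, .d, .c, .d, .e, .c, .g, .b, .c, .a, .c, .b, .v, .c, .e, .d, .c, .d, .e, .g, .f, .e, .d, .f, .e, .c, .b, .c, .g, .b, .g, .e, .d, .b, .d, .a, .d, .e, .v, .e, .d, .a, .d, .b, .d, .e, .v, .b, .v, .c, .b, .c, .e,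 .f, .d, .e, .f, .v, .e, .d, .c, .d, .e, .c, .g, .b, .c, .a, .c, .b, .v, .c, .e, .d, .c, .d, .e, .g, .f, .e, .d, .f, .e, .c, .b, .c, .g, .b, .g, .e, .d, .b, .d, .a, .d, .e, .g, .g, .e, .d, .a, .d, .b, .d, .e, .v, .b, .v, .c, .b, .c, .e, .f, .d, .e, .f, .v, .e, .d, .c, .d, .e, .c, .g, .b, .c, .a, .c, .b, .v, .c, .e, .d, .c, .d, .e, .g, .f, .e, .d, .f, .e, .c, .b, .c, .g, .b, .g, .e, .d, .b, .d, .a, .d, .e, .g, .e, .d, .a, .d, .b, .d, .e, .v, .b, .v, .c, .b, .c, .e, .f, .d, .e, .f, .v, .e, .d, .c, .d, .e, .c, .g, .b, .c, .a, .c, .b, .v, .c, .e, .d, .c, .d, .e, .g, .f, .e, .d, .f, .e, .c, .b, .c, .g, .b, .g, .e, .d, .b, .d, .a, .d, .e, .g, .g, .e, .d, .a, .d, .b, .d, .e, .v, .b, .v, .c, .b, .c, .e, .f, .d, .e, .f, .v, .e, .d, .c, .d, .e, .c, .g, .b, .c, .a, .c, .b, .v, .c, .e, .d, .c, .d, .e, .g, .f, .e, .d, .f, .e, .c, .b, .c, .g, .b, .g, .e, .d, .b, .d, .a, .d, .e, .g, .e, .d, .a, .d, .b, .d, .e, .v, .b,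 .v, .c, .b, .c, .e, .f, .d, .e, .f, .v, .e, .d, .c, .d, .e, .c, .g, .b, .c, .a, .c, .b, .v, .c, .e, .d, .c, .d, .e, .g, .f, .e, .d, .f]
  | .c => [.f, .d, .e, .f, .v, .e, .d, .c, .d, .e, .c, .g, .b, .c, .a, .c, .b, .v, .c, .e, .d, .c, .d, .e, .g, .f, .e, .d, .f, .e, .c, .b, .c, .g, .b, .g, .e, .d, .b, .d, .a, .d, .e, .g, .e, .d, .a, .d, .b, .d, .e, .v, .b, .v, .c, .b, .c, .e, .f, .d, .e, .f, .v, .e, .d, .c, .d, .e, .c, .g, .b, .c, .a, .c, .b, .v, .c, .e, .d, .c, .d, .e, .g, .f, .e, .d, .f, .e, .c, .b, .c, .g, .b, .g, .e, .d, .b, .d, .a, .d, .e, .v, .e, .d, .a, .d, .b, .d, .e, .v, .b, .v, .c, .b, .c, .e, .f, .d, .e, .f, .v, .e, .d, .c, .d, .e, .c, .g, .b, .c, .a, .c, .b, .v, .c, .e, .d, .c, .d, .e, .g, .f, .e, .d, .f]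
  | .d => [.e, .c, .b, .c, .g, .b, .g, .e, .d, .b, .d, .a, .d, .e, .g, .g, .e, .d, .a, .d, .b, .d, .e, .v, .b, .v, .c, .b, .c, .e]
  | .f => [.e, .c, .b, .c, .g, .b, .g, .e, .d, .b, .d, .a, .d, .e, .v, .e, .d, .a, .d, .b, .d, .e, .v, .b, .v, .c, .b, .c, .e, .f, .d, .e, .f, .v, .e, .d, .c, .d, .e, .c, .g, .b, .c, .a, .c, .b, .v, .c, .e, .d, .c, .d, .e, .g, .f, .e, .d, .f, .e, .c, .b, .c, .g, .b, .g, .e, .d, .b, .d, .a, .d, .e, .g, .e, .d, .a, .d, .b, .d, .e, .v, .b, .v, .c, .b, .c, .e]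
  | _ => []

def e1 : List OnL := [.a]

def baseCs : OnL → List OnL
  | .a => []
  | .b => [.b, .a]
  | .c => [.b, .a, .c, .b, .c, .b]
  | .d => [.b, .a, .c, .b, .c, .b, .d, .c]
  | .f => [.b, .c, .b, .c, .d, .f, .b, .c, .d]
  | _ => []

theorem inv_ok : on_gens.all (fun x => eqK img [x, x] []) = true := by decide +kernel

def rel_ok_c0 : List (List OnL × List OnL) := [
  ([.a, .b, .a], [.b, .a, .b]),
  ([.b, .c, .b, .c, .b], [.c, .b, .c, .b, .c]),
  ([.c, .d, .c], [.d, .c, .d]),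
  ([.a, .c], [.c, .a]),
  ([.a, .d], [.d, .a]),
  ([.b, .d], [.d, .b]),
  ([.a, .b, .c, .a, .b, .c, .a, .b, .c, .a, .b, .c, .a, .b, .c], []),
  ([.f, .a], [.a, .f]),
  ([.f, .b, .a, .f, .b, .a], []),
  ([.f, .c, .b, .c, .f, .c, .b, .c], []),
  ([.f, .d, .b, .f, .d, .b, .f, .d, .b], []),
  ([.g], []),
  ([.e], []),
  ([.v], [])]
theorem rel_ok_c0_ok : rel_ok_c0.all (fun r => eqK img (r.1 ++ r.2.reverse) []) = true := by decide +kernel
theorem rel_ok : (m3_rws).all (fun r => eqK img (r.1 ++ r.2.reverse) []) = true :=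
  rel_ok_c0_ok

def base_ok_c0 : List (OnL) := [
  .g,
  .a,
  .b,
  .c,
  .d,
  .e,
  .f,
  .v]
theorem base_ok_c0_ok : base_ok_c0.all (fun x => (img x).isEmpty || eqK img (conjW e1 [baseCs x]) [x]) = true := by decide +kernel
theorem base_ok : (on_gens).all (fun x => (img x).isEmpty || eqK img (conjW e1 [baseCs x]) [x]) = true :=
  base_ok_c0_ok

def g5 : List OnL := [.b, .c]
def cs5 : List (List OnL) := [[], [.b, .f]]
theorem g5_pow : eqK img (List.replicate 5 g5).flatten [] = true := by decide +kernel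
theorem g5_ne : eqK img g5 [] = false := by decide +kernel
theorem g5_ncl : eqK img (conjW g5 cs5) e1 = true := by decide +kernel

def g11 : List OnL := [.b, .c, .d, .f]
def cs11 : List (List OnL) := [[], [.b, .d, .f, .d]]
theorem g11_pow : eqK img (List.replicate 11 g11).flatten [] = true := by decide +kernel
theorem g11_ne : eqK img g11 [] = false := by decide +kernel
theorem g11_ncl : eqK img (conjW g11 cs11) e1 = true := by decide +kernel

def t2_certs : List (List OnL × List (List OnL)) := [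
  ([.f], [[.d, .c, .b, .f, .d, .c, .b, .c, .b]]),
  ([.c], [[.b, .c, .b, .c, .a, .b]]),
  ([.a], [[]]),
  ([.a, .f], [[.d, .f, .c, .d, .b, .c, .b, .c, .a, .b]]),
  ([.c, .f], [[], []]),
  ([.f, .c], [[], []]),
  ([.a, .c], [[.b, .c, .a, .b, .c, .b]]),
  ([.d, .f, .c, .d], [[], []]),
  ([.d, .c, .f, .d], [[], []]),
  ([.d, .f, .c, .d, .c], [[], [], [], []]),
  ([.c, .d, .c, .f, .d], [[], [], [], []]),
  ([.c, .d, .f, .c, .d], [[], [], [], []]),
  ([.d, .c, .f, .d, .c], [[], [], [], []]),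
  ([.c, .d, .f, .c, .d, .c], [[], []]),
  ([.c, .d, .c, .f, .d, .c], [[], []])]
def t2_sigs : List (List ℕ) := [
  [0, 1, 113129],
  [94273, 116553, 91525],
  [16851, 119737, 78827],
  [35222, 121774, 71123],
  [23246, 58392, 119542],
  [11858, 80460, 117610],
  [46382, 70627, 79096],
  [80776, 34918, 56796],
  [19090, 55125, 99346],
  [23270, 113095, 64970],
  [86975, 23357, 6577],
  [20148, 58998, 37324],
  [58382, 35284, 64042],
  [120746, 58739, 37298],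
  [48988, 21539, 8004],
  [103370, 106586, 56824]]
theorem t2_len : t2_sigs.length = 16 := by decide
theorem t2_sig : ([] :: t2_certs.map Prod.fst).map (fun w => sg (w.flatMap img)) = t2_sigs := by
  decide +kernel
theorem t2_nd : t2_sigs.Nodup := by decide +kernel

def t2_mul_c0 : List (List OnL) := [
  [],
  [.f],
  [.c],
  [.a],
  [.a, .f]]
theorem t2_mul_c0_ok : t2_mul_c0.all (fun w1 => ([] :: t2_certs.map Prod.fst).all
    (fun w2 => decide (sg2 (w1.flatMap img) (w2.flatMap img) ∈ t2_sigs))) = true := by decide +kernel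
def t2_mul_c1 : List (List OnL) := [
  [.c, .f],
  [.f, .c],
  [.a, .c],
  [.d, .f, .c, .d],
  [.d, .c, .f, .d]]
theorem t2_mul_c1_ok : t2_mul_c1.all (fun w1 => ([] :: t2_certs.map Prod.fst).all
    (fun w2 => decide (sg2 (w1.flatMap img) (w2.flatMap img) ∈ t2_sigs))) = true := by decide +kernel
def t2_mul_c2 : List (List OnL) := [
  [.d, .f, .c, .d, .c],
  [.c, .d, .c, .f, .d],
  [.c, .d, .f, .c, .d],
  [.d, .c, .f, .d, .c],
  [.c, .d, .f, .c, .d, .c]]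
theorem t2_mul_c2_ok : t2_mul_c2.all (fun w1 => ([] :: t2_certs.map Prod.fst).all
    (fun w2 => decide (sg2 (w1.flatMap img) (w2.flatMap img) ∈ t2_sigs))) = true := by decide +kernel
def t2_mul_c3 : List (List OnL) := [
  [.c, .d, .c, .f, .d, .c]]
theorem t2_mul_c3_ok : t2_mul_c3.all (fun w1 => ([] :: t2_certs.map Prod.fst).all
    (fun w2 => decide (sg2 (w1.flatMap img) (w2.flatMap img) ∈ t2_sigs))) = true := by decide +kernel
theorem t2_mul : ([] :: t2_certs.map Prod.fst).all (fun w1 => ([] :: t2_certs.map Prod.fst).all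
    (fun w2 => decide (sg2 (w1.flatMap img) (w2.flatMap img) ∈ t2_sigs))) = true :=
  all_append_true _ _ _ t2_mul_c0_ok
    (all_append_true _ _ _ t2_mul_c1_ok
    (all_append_true _ _ _ t2_mul_c2_ok
    (t2_mul_c3_ok)))

def t2_ncl_c0 : List (List OnL × List (List OnL)) := [
  ([.f], [[.d, .c, .b, .f, .d, .c, .b, .c, .b]]),
  ([.c], [[.b, .c, .b, .c, .a, .b]]),
  ([.a], [[]]),
  ([.a, .f], [[.d, .f, .c, .d, .b, .c, .b, .c, .a, .b]]),
  ([.c, .f], [[], []]),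
  ([.f, .c], [[], []]),
  ([.a, .c], [[.b, .c, .a, .b, .c, .b]]),
  ([.d, .f, .c, .d], [[], []]),
  ([.d, .c, .f, .d], [[], []]),
  ([.d, .f, .c, .d, .c], [[], [], [], []]),
  ([.c, .d, .c, .f, .d], [[], [], [], []]),
  ([.c, .d, .f, .c, .d], [[], [], [], []]),
  ([.d, .c, .f, .d, .c], [[], [], [], []]),
  ([.c, .d, .f, .c, .d, .c], [[], []]),
  ([.c, .d, .c, .f, .d, .c], [[], []])]
theorem t2_ncl_c0_ok : t2_ncl_c0.all (fun t => eqK img (conjW t.1 t.2) e1) = true := by decide +kernel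
theorem t2_ncl : (t2_certs).all (fun t => eqK img (conjW t.1 t.2) e1) = true :=
  t2_ncl_c0_ok

def t3_certs : List (List OnL × List (List OnL)) := [
  ([.b, .a], [[.c, .b], [.c, .b, .c, .b, .c, .b]]),
  ([.a, .b], [[.b, .c, .b], [.a, .c, .b, .c, .b, .c, .b]]),
  ([.a, .f, .d], [[.c, .d, .b, .c, .b], [.c, .b, .c, .d, .c, .f, .b, .c, .c, .d, .b, .c, .b]]),
  ([.a, .d, .f], [[.d, .c, .f, .d, .b, .c, .b], [.c, .b, .c, .d, .c, .f, .b, .c, .d, .c, .f, .d, .b, .c, .b]]),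
  ([.b, .f, .d], [[.c, .d, .f, .b, .c, .d, .b, .c, .a, .b], [.a, .c, .b, .c, .b, .c, .d, .f, .b, .c, .d, .b, .c, .a, .b]]),
  ([.d, .f, .b], [[.b, .c, .b, .f, .d, .c, .b, .f, .d, .c, .b], [.a, .c, .b, .a, .c, .b, .c, .b, .f, .d, .c, .b, .f, .d, .c, .b]]),
  ([.b, .d, .f], [[.f, .b, .c, .d, .f, .b, .c, .d, .b, .c, .a, .b], [.c, .b, .c, .f, .b, .c, .d, .f, .b, .c, .d, .b, .c, .a, .b]]),
  ([.f, .b, .d], [[.b, .c, .d, .f, .b, .c, .d, .b, .c, .a, .b], [.c, .b, .c, .b, .c, .d, .f, .b, .c, .d, .b, .c, .a, .b]])]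
def t3_sigs : List (List ℕ) := [
  [0, 1, 113129],
  [20059, 116553, 110824],
  [110256, 80865, 38048],
  [11887, 92295, 109714],
  [79565, 80202, 68743],
  [28366, 110603, 56774],
  [64919, 91142, 100600],
  [73772, 19378, 45855],
  [106743, 80648, 58797]]
theorem t3_len : t3_sigs.length = 9 := by decide
theorem t3_sig : ([] :: t3_certs.map Prod.fst).map (fun w => sg (w.flatMap img)) = t3_sigs := by
  decide +kernel
theorem t3_nd : t3_sigs.Nodup := by decide +kernel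

def t3_mul_c0 : List (List OnL) := [
  [],
  [.b, .a],
  [.a, .b],
  [.a, .f, .d],
  [.a, .d, .f],
  [.b, .f, .d]]
theorem t3_mul_c0_ok : t3_mul_c0.all (fun w1 => ([] :: t3_certs.map Prod.fst).all
    (fun w2 => decide (sg2 (w1.flatMap img) (w2.flatMap img) ∈ t3_sigs))) = true := by decide +kernel
def t3_mul_c1 : List (List OnL) := [
  [.d, .f, .b],
  [.b, .d, .f],
  [.f, .b, .d]]
theorem t3_mul_c1_ok : t3_mul_c1.all (fun w1 => ([] :: t3_certs.map Prod.fst).all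
    (fun w2 => decide (sg2 (w1.flatMap img) (w2.flatMap img) ∈ t3_sigs))) = true := by decide +kernel
theorem t3_mul : ([] :: t3_certs.map Prod.fst).all (fun w1 => ([] :: t3_certs.map Prod.fst).all
    (fun w2 => decide (sg2 (w1.flatMap img) (w2.flatMap img) ∈ t3_sigs))) = true :=
  all_append_true _ _ _ t3_mul_c0_ok
    (t3_mul_c1_ok)

def t3_ncl_c0 : List (List OnL × List (List OnL)) := [
  ([.b, .a], [[.c, .b], [.c, .b, .c, .b, .c, .b]]),
  ([.a, .b], [[.b, .c, .b], [.a, .c, .b, .c, .b, .c, .b]]),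
  ([.a, .f, .d], [[.c, .d, .b, .c, .b], [.c, .b, .c, .d, .c, .f, .b, .c, .c, .d, .b, .c, .b]])]
theorem t3_ncl_c0_ok : t3_ncl_c0.all (fun t => eqK img (conjW t.1 t.2) e1) = true := by decide +kernel
def t3_ncl_c1 : List (List OnL × List (List OnL)) := [
  ([.a, .d, .f], [[.d, .c, .f, .d, .b, .c, .b], [.c, .b, .c, .d, .c, .f, .b, .c, .d, .c, .f, .d, .b, .c, .b]]),
  ([.b, .f, .d], [[.c, .d, .f, .b, .c, .d, .b, .c, .a, .b], [.a, .c, .b, .c, .b, .c, .d, .f, .b, .c, .d, .b, .c, .a, .b]])]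
theorem t3_ncl_c1_ok : t3_ncl_c1.all (fun t => eqK img (conjW t.1 t.2) e1) = true := by decide +kernel
def t3_ncl_c2 : List (List OnL × List (List OnL)) := [
  ([.d, .f, .b], [[.b, .c, .b, .f, .d, .c, .b, .f, .d, .c, .b], [.a, .c, .b, .a, .c, .b, .c, .b, .f, .d, .c, .b, .f, .d, .c, .b]]),
  ([.b, .d, .f], [[.f, .b, .c, .d, .f, .b, .c, .d, .b, .c, .a, .b], [.c, .b, .c, .f, .b, .c, .d, .f, .b, .c, .d, .b, .c, .a, .b]])]
theorem t3_ncl_c2_ok : t3_ncl_c2.all (fun t => eqK img (conjW t.1 t.2) e1) = true := by decide +kernel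
def t3_ncl_c3 : List (List OnL × List (List OnL)) := [
  ([.f, .b, .d], [[.b, .c, .d, .f, .b, .c, .d, .b, .c, .a, .b], [.c, .b, .c, .b, .c, .d, .f, .b, .c, .d, .b, .c, .a, .b]])]
theorem t3_ncl_c3_ok : t3_ncl_c3.all (fun t => eqK img (conjW t.1 t.2) e1) = true := by decide +kernel
theorem t3_ncl : (t3_certs).all (fun t => eqK img (conjW t.1 t.2) e1) = true :=
  all_append_true _ _ _ t3_ncl_c0_ok
    (all_append_true _ _ _ t3_ncl_c1_ok
    (all_append_true _ _ _ t3_ncl_c2_ok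
    (t3_ncl_c3_ok)))

end Cfsg.Agent.H94.S460.M
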